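import Mathlib
import Cfsg.Agent.S0752
import Cfsg.Agent.SpGeom.Order
import Cfsg.Agent.SLn.Card
import Cfsg.Prelude.Def_GeometricClasses

set_option autoImplicit false

/-! Elements of `SL_n` having no non-degenerate alternating form as a semi-invariant. -/

namespace CfsgLib.SympType

open Matrix

variable {F : Type*} [Field F]

/-- A non-degenerate alternating form is the standard one in suitable coordinates. -/
theorem exists_standard {V : Type*} [AddCommGroup V] [Module F V] [FiniteDimensional F V]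
    (B : LinearMap.BilinForm F V) (hA : B.IsAlt) (hB : ∀ v, (∀ w, B v w = 0) → v = 0) :
    ∃ (m : ℕ) (L : V ≃ₗ[F] (Fin m ⊕ Fin m → F)), ∀ u v, Cfsg.sympForm m F (L u) (L v) = B u v := by
  classical
  obtain ⟨m, k, b, hef, hee, hff, hrad⟩ := Cfsg.Agent.S0752.result B hA
  obtain rfl : k = 0 := by
    by_contra hk
    exact b.ne_zero (Sum.inr ⟨0, by omega⟩) (hB _ fun w => hrad _ w)
  let b' := b.reindex ((Equiv.sumEmpty (Fin m ⊕ Fin m) (Fin 0)).trans (Equiv.sumComm (Fin m) (Fin m)))
  refine ⟨m, b'.equivFun, fun u v => ?_⟩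
  let S : LinearMap.BilinForm F V := LinearMap.mk₂ F (fun u v => Cfsg.sympForm m F (b'.equivFun u) (b'.equivFun v))
    (fun x y z => by simp [CfsgLib.SpGeom.form_add_left]) (fun c x z => by simp [CfsgLib.SpGeom.form_smul_left])
    (fun x y z => by simp [CfsgLib.SpGeom.form_add_right]) (fun c x z => by simp [CfsgLib.SpGeom.form_smul_right])
  have hfe : ∀ i j : Fin m, B (b (Sum.inl (Sum.inr i))) (b (Sum.inl (Sum.inl j))) = if i = j then -1 else 0 := by
    intro i j
    rw [← LinearMap.IsAlt.neg hA, hef]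
    by_cases h : i = j
    · subst h; simp
    · simp [h, Ne.symm h]
  suffices hS : S = B from LinearMap.congr_fun (LinearMap.congr_fun hS u) v
  refine b'.ext fun i => b'.ext fun j => ?_
  show Cfsg.sympForm m F (b'.equivFun (b' i)) (b'.equivFun (b' j)) = B (b' i) (b' j)
  have hsingle : ∀ i, b'.equivFun (b' i) = Pi.single i 1 := fun i => by
    funext j; simp [Pi.single_apply, Finsupp.single_apply, eq_comm]
  rw [hsingle, hsingle, CfsgLib.SpGeom.form_def]
  rcases i with i | i <;> rcases j with j | j <;>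
    simp [b', hee, hff, hef, hfe, Finset.sum_ite_eq', Pi.single_apply]
  all_goals first | (split_ifs <;> simp_all) | skip

/-- A non-degenerate alternating form needs even dimension. -/
theorem even_finrank {V : Type*} [AddCommGroup V] [Module F V] [FiniteDimensional F V]
    (B : LinearMap.BilinForm F V) (hA : B.IsAlt) (hB : ∀ v, (∀ w, B v w = 0) → v = 0) :
    Even (Module.finrank F V) := by
  obtain ⟨m, L, -⟩ := exists_standard B hA hB
  rw [L.finrank_eq, Module.finrank_fintype_fun_eq_card, Fintype.card_sum, Fintype.card_fin]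
  exact Even.add_self m

/-- No non-degenerate alternating form is multiplied by a scalar under `x`. -/
def NoSimilitude {ι : Type*} [Fintype ι] (x : Matrix ι ι F) : Prop :=
  ∀ (B : LinearMap.BilinForm F (ι → F)) (c : F), B.IsAlt → (∀ v, (∀ w, B v w = 0) → v = 0) → c ≠ 0 →
    (∀ u v, B (x *ᵥ u) (x *ᵥ v) = c * B u v) → False

theorem not_mem_similarity {n : ℕ} {f : (Fin n → F) → (Fin n → F) → F} (hf : Cfsg.Geo.IsSymplecticForm f)
    {x : Matrix.SpecialLinearGroup (Fin n) F} (hx : NoSimilitude (x : Matrix (Fin n) (Fin n) F))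
    (P : Matrix.SpecialLinearGroup (Fin n) F) :
    P⁻¹ * x * P ∉ (Cfsg.Geo.similarityGroup f).comap
      (Matrix.SpecialLinearGroup.toGL : Matrix.SpecialLinearGroup (Fin n) F →* GL (Fin n) F) := by
  intro h
  obtain ⟨c, hc⟩ := h
  let T := Matrix.mulVecLin ((P⁻¹ : Matrix.SpecialLinearGroup (Fin n) F) : Matrix (Fin n) (Fin n) F)
  let B : LinearMap.BilinForm F (Fin n → F) := LinearMap.mk₂ F (fun u v => f (T u) (T v))
    (fun x y z => by rw [map_add, hf.bilinear.add_left]) (fun a x z => by rw [map_smul, hf.bilinear.smul_left]; rfl)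
    (fun x y z => by rw [map_add, hf.bilinear.add_right]) (fun a x z => by rw [map_smul, hf.bilinear.smul_right]; rfl)
  have hTP : ∀ v, T ((P : Matrix (Fin n) (Fin n) F) *ᵥ v) = v := fun v => by
    show ((P⁻¹ : Matrix.SpecialLinearGroup (Fin n) F) : Matrix (Fin n) (Fin n) F) *ᵥ _ = _
    rw [Matrix.mulVec_mulVec, ← Matrix.SpecialLinearGroup.coe_mul, inv_mul_cancel,
      Matrix.SpecialLinearGroup.coe_one, Matrix.one_mulVec]
  refine hx B c (fun v => hf.alternating _) (fun v hv => by_contra fun hv0 => ?_) c.ne_zero fun u v => ?_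
  · have hT : T v ≠ 0 := fun h0 => hv0 (by
      have h1 : (P : Matrix (Fin n) (Fin n) F) *ᵥ T v = v := by
        show (P : Matrix (Fin n) (Fin n) F) *ᵥ
          (((P⁻¹ : Matrix.SpecialLinearGroup (Fin n) F) : Matrix (Fin n) (Fin n) F) *ᵥ v) = v
        rw [Matrix.mulVec_mulVec, ← Matrix.SpecialLinearGroup.coe_mul, mul_inv_cancel,
          Matrix.SpecialLinearGroup.coe_one, Matrix.one_mulVec]
      rw [← h1, h0, Matrix.mulVec_zero])
    obtain ⟨w, hw⟩ := (hf.nondegenerate _ hT).2
    apply hw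
    rw [← hTP w]
    exact hv _
  · have h := hc (T u) (T v)
    show f (T _) (T _) = _ * f (T u) (T v)
    have hy : ∀ w, ((P⁻¹ * x * P : Matrix.SpecialLinearGroup (Fin n) F) : Matrix (Fin n) (Fin n) F) *ᵥ T w =
        T ((x : Matrix (Fin n) (Fin n) F) *ᵥ w) := fun w => by
      show _ *ᵥ (((P⁻¹ : Matrix.SpecialLinearGroup (Fin n) F) : Matrix (Fin n) (Fin n) F) *ᵥ w) =
        ((P⁻¹ : Matrix.SpecialLinearGroup (Fin n) F) : Matrix (Fin n) (Fin n) F) *ᵥ _
      rw [Matrix.mulVec_mulVec, Matrix.mulVec_mulVec, ← Matrix.SpecialLinearGroup.coe_mul,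
        ← Matrix.SpecialLinearGroup.coe_mul, mul_assoc (P⁻¹ * x), mul_inv_cancel, mul_one]
    rw [← h, ← hy, ← hy]
    rfl

/-- A prime dividing the index of the symplectic similitudes. -/
theorem prime_dvd_index [Fintype F] {n : ℕ} {f : (Fin n → F) → (Fin n → F) → F}
    (hn : 0 < n) (hf : Cfsg.Geo.IsSymplecticForm f) {r : ℕ} (hr : r.Prime)
    (hΩ : r ∣ ((Cfsg.Geo.similarityGroup f).comap
      (Matrix.SpecialLinearGroup.toGL : Matrix.SpecialLinearGroup (Fin n) F →* GL (Fin n) F)).index) :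
    r ∣ Fintype.card F ∨ ∃ j, 2 * j + 1 < n ∧ r ∣ Fintype.card F ^ (2 * j + 1) - 1 := by
  classical
  let B : LinearMap.BilinForm F (Fin n → F) := LinearMap.mk₂ F f hf.bilinear.add_left
    (fun c x v => by rw [hf.bilinear.smul_left, smul_eq_mul]) hf.bilinear.add_right
    (fun c v x => by rw [hf.bilinear.smul_right, smul_eq_mul])
  obtain ⟨m, L, hL⟩ := exists_standard B hf.alternating fun v hv => by_contra fun hv0 => by
    obtain ⟨w, hw⟩ := (hf.nondegenerate v hv0).2
    exact hw (hv w)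
  have hnm : n = 2 * m := by
    have := L.finrank_eq
    simp at this
    omega
  subst hnm
  let φ : Matrix.symplecticGroup (Fin m) F → Matrix.SpecialLinearGroup (Fin (2 * m)) F := fun A =>
    ⟨LinearMap.toMatrix' (L.symm.toLinearMap ∘ₗ Matrix.toLin' (A : Matrix (Fin m ⊕ Fin m) (Fin m ⊕ Fin m) F) ∘ₗ L.toLinearMap),
      by
        rw [LinearMap.det_toMatrix']
        exact (LinearMap.det_conj _ L.symm).trans ((LinearMap.det_toLin' _).trans (SymplecticGroup.det_eq_one A.2))⟩
  have hφ : ∀ A u, (φ A : Matrix (Fin (2 * m)) (Fin (2 * m)) F) *ᵥ u =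
      L.symm ((A : Matrix (Fin m ⊕ Fin m) (Fin m ⊕ Fin m) F) *ᵥ L u) := fun A u => by
    rw [← Matrix.toLin'_apply, Matrix.toLin'_toMatrix']
    rfl
  let Φ : Matrix.symplecticGroup (Fin m) F →* Matrix.SpecialLinearGroup (Fin (2 * m)) F :=
    MonoidHom.mk' φ fun A A' => Subtype.ext (Matrix.toLin'.injective (LinearMap.ext fun u => by
      simp [hφ, ← Matrix.mulVec_mulVec, CfsgLib.SpGeom.coe_mul']))
  have hinj : Function.Injective Φ := fun A A' h => CfsgLib.SpGeom.ext_mulVec fun v => by
    have := congrArg (fun M : Matrix.SpecialLinearGroup (Fin (2 * m)) F =>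
      L ((M : Matrix (Fin (2 * m)) (Fin (2 * m)) F) *ᵥ L.symm v)) h
    change L ((φ A : Matrix (Fin (2 * m)) (Fin (2 * m)) F) *ᵥ _) = L ((φ A' : Matrix (Fin (2 * m)) (Fin (2 * m)) F) *ᵥ _) at this
    simpa [hφ] using this
  have hle : Φ.range ≤ (Cfsg.Geo.similarityGroup f).comap Matrix.SpecialLinearGroup.toGL := by
    rintro _ ⟨A, rfl⟩
    refine ⟨1, fun u v => ?_⟩
    rw [Units.val_one, one_mul]
    show B ((φ A : Matrix (Fin (2 * m)) (Fin (2 * m)) F) *ᵥ u) ((φ A : Matrix (Fin (2 * m)) (Fin (2 * m)) F) *ᵥ v) = B u v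
    rw [← hL, hφ, hφ, LinearEquiv.apply_symm_apply, LinearEquiv.apply_symm_apply,
      CfsgLib.SpGeom.form_mulVec, hL]
  have hdvd : r ∣ Φ.range.index := hΩ.trans (Subgroup.index_dvd_of_le hle)
  have hmul := Φ.range.card_mul_index
  rw [← Nat.card_congr (MonoidHom.ofInjective hinj).toEquiv, CfsgLib.SpGeom.card_Sp] at hmul
  have hsl := CfsgLib.SLn.card_SL_eq F (2 * m) hn
  rw [← hmul, CfsgLib.SLn.prod_sub_pow_eq] at hsl
  set q := Fintype.card F with hq
  have hq1 : 1 < q := Fintype.one_lt_card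
  have hsplit : ∀ k, ∏ i ∈ Finset.range (2 * k), (q ^ (i + 1) - 1) =
      (∏ i ∈ Finset.range k, (q ^ (2 * (i + 1)) - 1)) * ∏ i ∈ Finset.range k, (q ^ (2 * i + 1) - 1) := by
    intro k
    induction k with
    | zero => simp
    | succ k ih =>
      rw [show 2 * (k + 1) = 2 * k + 1 + 1 by ring, Finset.prod_range_succ, Finset.prod_range_succ, ih,
        Finset.prod_range_succ, Finset.prod_range_succ, show 2 * k + 1 + 1 = 2 * (k + 1) by ring]
      ring
  have hrefl : ∏ i ∈ Finset.range (2 * m), (q ^ (2 * m - i) - 1) = ∏ i ∈ Finset.range (2 * m), (q ^ (i + 1) - 1) := by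
    rw [← Finset.prod_range_reflect (fun i => q ^ (i + 1) - 1)]
    exact Finset.prod_congr rfl fun i hi => by
      rw [Finset.mem_range] at hi
      rw [show 2 * m - 1 - i + 1 = 2 * m - i by omega]
  rw [hrefl, hsplit] at hsl
  obtain ⟨e, he⟩ : ∃ e, 2 * m * (2 * m - 1) / 2 = m ^ 2 + e := by
    refine Nat.exists_eq_add_of_le ?_
    rw [Nat.mul_assoc, Nat.mul_div_cancel_left _ two_pos]
    nlinarith [show m ≤ 2 * m - 1 by omega]
  rw [he, pow_add] at hsl
  have hpos : 0 < q ^ m ^ 2 * ∏ i ∈ Finset.range m, (q ^ (2 * (i + 1)) - 1) :=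
    Nat.mul_pos (pow_pos (by omega) _) (Finset.prod_pos fun i _ => by
      have : 1 < q ^ (2 * (i + 1)) := Nat.one_lt_pow (by omega) hq1
      omega)
  have hY : (q - 1) * Φ.range.index = q ^ e * ∏ i ∈ Finset.range m, (q ^ (2 * i + 1) - 1) := by
    refine Nat.eq_of_mul_eq_mul_left hpos ?_
    calc _ = (q - 1) * (q ^ m ^ 2 * (∏ i ∈ Finset.range m, (q ^ (2 * (i + 1)) - 1)) * Φ.range.index) := by ring
      _ = _ := hsl
      _ = _ := by ring
  have := dvd_mul_of_dvd_right hdvd (q - 1)
  rw [hY] at this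
  rcases hr.dvd_mul.1 this with h | h
  · exact Or.inl (hr.dvd_of_dvd_pow h)
  · obtain ⟨j, hj, hjr⟩ := (hr.prime.dvd_finsetProd_iff _).1 h
    exact Or.inr ⟨j, by have := Finset.mem_range.1 hj; omega, hjr⟩

/-- A single Jordan block of size three. -/
theorem exists_unipotent {p : ℕ} [Fact p.Prime] [CharP F p] (hp : p ≠ 2) {n : ℕ} (hn : 3 ≤ n) :
    ∃ x : Matrix.SpecialLinearGroup (Fin n) F, x ^ p = 1 ∧
      (∀ z : F, (x : Matrix (Fin n) (Fin n) F) ≠ z • 1) ∧ NoSimilitude (x : Matrix (Fin n) (Fin n) F) := by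
  classical
  obtain ⟨a, b, c, hab, hac, hbc⟩ : ∃ a b c : Fin n, a ≠ b ∧ a ≠ c ∧ b ≠ c :=
    ⟨⟨0, by omega⟩, ⟨1, by omega⟩, ⟨2, by omega⟩, by simp, by simp, by simp⟩
  let N : Matrix (Fin n) (Fin n) F := Matrix.single b a 1 + Matrix.single c b 1
  have hM : transvection b a (1 : F) * transvection c b 1 = 1 + N := by
    simp only [transvection, N, Matrix.add_mul, Matrix.mul_add, Matrix.one_mul, Matrix.mul_one,
      Matrix.single_mul_single_of_ne _ _ _ _ hac, add_zero]
    abel
  let x : Matrix.SpecialLinearGroup (Fin n) F := ⟨1 + N, by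
    rw [← hM, Matrix.det_mul, Matrix.det_transvection_of_ne _ _ hab.symm,
      Matrix.det_transvection_of_ne _ _ hbc.symm, one_mul]⟩
  have hN : ∀ j, N *ᵥ Pi.single j (1 : F) =
      (if j = a then Pi.single b 1 else 0) + (if j = b then Pi.single c 1 else 0) := by
    intro j
    funext i
    simp only [Matrix.mulVec_single_one, Matrix.col_apply, N, Matrix.add_apply, Matrix.single_apply,
      Pi.add_apply]
    by_cases h1 : j = a
    · subst h1; simp [Pi.single_apply, eq_comm, hab, hab.symm]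
    by_cases h2 : j = b
    · subst h2; simp [Pi.single_apply, eq_comm, hab, hab.symm]
    simp [h1, h2, Ne.symm h1, Ne.symm h2]
  have hN2 : N * N = Matrix.single c a 1 := by
    simp [N, Matrix.add_mul, Matrix.mul_add, Matrix.single_mul_single_of_ne, hab, hac, hbc.symm, hbc, hab.symm]
  have hN3 : N ^ 3 = 0 := by
    rw [pow_succ, pow_two, hN2]
    simp [N, Matrix.mul_add, Matrix.single_mul_single_of_ne, hab, hac]
  have h3 : 3 ≤ p := by
    have := (Fact.out : p.Prime).two_le
    omega
  have hxp : x ^ p = 1 := Subtype.ext (by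
    haveI : Nonempty (Fin n) := ⟨a⟩
    haveI : CharP (Matrix (Fin n) (Fin n) F) p := inferInstance
    rw [Matrix.SpecialLinearGroup.coe_pow]
    show (1 + N) ^ p = 1
    rw [add_pow_char_of_commute (p := p) (h := Commute.one_left N), one_pow,
      ← Nat.add_sub_cancel' h3, pow_add, hN3, Matrix.zero_mul, add_zero])
  refine ⟨x, hxp, fun z hz => ?_, fun B k hA hB hk hx => ?_⟩
  · have := congrFun (congrFun hz b) a
    simp [x, N, Matrix.single_apply, hab.symm, hbc.symm] at this
  · have hx' : ∀ u v, B (u + N *ᵥ u) (v + N *ᵥ v) = k * B u v := fun u v => by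
      simpa [x, Matrix.add_mulVec] using hx u v
    have hc0 : (Pi.single c 1 : Fin n → F) ≠ 0 := by simp
    have hk1 : k = 1 := by
      have hpow : ∀ e u v, B (((x : Matrix (Fin n) (Fin n) F) ^ e) *ᵥ u) (((x : Matrix (Fin n) (Fin n) F) ^ e) *ᵥ v) = k ^ e * B u v := by
        intro e
        induction e with
        | zero => simp
        | succ e ih =>
          intro u v
          rw [pow_succ', ← Matrix.mulVec_mulVec, ← Matrix.mulVec_mulVec, hx, ih, pow_succ]
          ring
      obtain ⟨w, hw⟩ : ∃ w, B (Pi.single c 1) w ≠ 0 := by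
        by_contra h; push Not at h; exact hc0 (hB _ h)
      have h := hpow p (Pi.single c 1) w
      rw [← Matrix.SpecialLinearGroup.coe_pow, hxp, Matrix.SpecialLinearGroup.coe_one, Matrix.one_mulVec,
        Matrix.one_mulVec] at h
      have hkp : k ^ p = 1 := mul_right_cancel₀ hw (h.symm.trans (one_mul _).symm)
      have : (k - 1) ^ p = 0 := by rw [sub_pow_char, one_pow, hkp, sub_self]
      exact sub_eq_zero.1 (pow_eq_zero_iff (by omega) |>.1 this)
    simp only [hk1, one_mul] at hx'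
    have hxa : N *ᵥ Pi.single a (1 : F) = Pi.single b 1 := by simp [hN, hab]
    have hxb : N *ᵥ Pi.single b (1 : F) = Pi.single c 1 := by simp [hN, hab.symm]
    have hxj : ∀ j, j ≠ a → j ≠ b → N *ᵥ Pi.single j (1 : F) = 0 := fun j h1 h2 => by simp [hN, h1, h2]
    have hfix : ∀ j, j ≠ a → j ≠ b →
        B (Pi.single j 1) (Pi.single c 1) = 0 ∧ B (Pi.single j 1) (Pi.single b 1) = 0 := fun j h1 h2 => by
      constructor
      · have := hx' (Pi.single j 1) (Pi.single b 1)
        rw [hxj j h1 h2, hxb, add_zero, map_add] at this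
        simpa using this
      · have := hx' (Pi.single j 1) (Pi.single a 1)
        rw [hxj j h1 h2, hxa, add_zero, map_add] at this
        simpa using this
    have hbc' : B (Pi.single b 1) (Pi.single c 1) = 0 := by
      rw [← LinearMap.IsAlt.neg hA, (hfix c hac.symm hbc.symm).2, neg_zero]
    have hac' : B (Pi.single a 1) (Pi.single c 1) = 0 := by
      have := hx' (Pi.single a 1) (Pi.single b 1)
      rw [hxa, hxb] at this
      simpa [hA (Pi.single b 1), hbc'] using this
    refine hc0 (hB _ fun w => ?_)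
    have : B (Pi.single c 1) = 0 := LinearMap.pi_ext' fun j => LinearMap.ext_ring (by
      show B (Pi.single c 1) (Pi.single j 1) = 0
      rw [← LinearMap.IsAlt.neg hA, neg_eq_zero]
      by_cases h1 : j = a
      · rw [h1]; exact hac'
      by_cases h2 : j = b
      · rw [h2]; exact hbc'
      exact (hfix j h1 h2).1)
    rw [this]; rfl

/-- A diagonal element of order dividing `r`, for `r ∣ q - 1`. -/
theorem exists_diagonal [Fintype F] {n : ℕ} (hn : 4 ≤ n) (he : Even n) {r : ℕ} [hr : Fact r.Prime]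
    (hr2 : r ≠ 2) (hgap : ¬ (n = 6 ∧ r = 3)) (hdvd : r ∣ Fintype.card F - 1) :
    ∃ x : Matrix.SpecialLinearGroup (Fin n) F, x ^ r = 1 ∧
      (∀ z : F, (x : Matrix (Fin n) (Fin n) F) ≠ z • 1) ∧ NoSimilitude (x : Matrix (Fin n) (Fin n) F) := by
  classical
  obtain ⟨u, hu⟩ := exists_prime_orderOf_dvd_card' (G := Fˣ) r (by
    rwa [Nat.card_units, Nat.card_eq_fintype_card])
  have hζe : ∀ k : ℕ, (u : F) ^ k = 1 ↔ r ∣ k := fun k => by
    rw [← Units.val_pow_eq_pow_val, Units.val_eq_one, ← orderOf_dvd_iff_pow_eq_one, hu]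
  set ζ := (u : F) with hζ
  have hζ0 : ζ ≠ 0 := u.ne_zero
  have hr2' : ¬ r ∣ 2 := fun h => hr2 ((Nat.prime_dvd_prime_iff_eq hr.out Nat.prime_two).1 h)
  have hζ1 : ζ ≠ 1 := fun h => hr.out.ne_one (Nat.dvd_one.1 ((hζe 1).1 (by rwa [pow_one])))
  have hζsq : ζ ^ 2 ≠ 1 := fun h => hr2' ((hζe 2).1 h)
  have hζr : ζ ^ r = 1 := (hζe r).2 dvd_rfl
  set γ := (ζ ^ 2)⁻¹ with hγ
  have hγ1 : γ ≠ 1 := fun h => hζsq (by simpa [hγ] using h)
  let d : Fin n → F := fun i => if i.1 < 2 then ζ else if i.1 = 2 then γ else 1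
  have hdet : (Matrix.diagonal d).det = 1 := by
    obtain ⟨k, rfl⟩ : ∃ k, n = k + 3 := ⟨n - 3, by omega⟩
    rw [Matrix.det_diagonal, Fin.prod_univ_succ, Fin.prod_univ_succ, Fin.prod_univ_succ]
    simp [d, hγ, pow_two, Nat.mod_eq_of_lt (show 2 < k + 3 by omega)]
    field_simp
  let x : Matrix.SpecialLinearGroup (Fin n) F := ⟨Matrix.diagonal d, hdet⟩
  refine ⟨x, Subtype.ext ?_, fun z hz => ?_, fun B c hA hB hc hx => ?_⟩
  · rw [Matrix.SpecialLinearGroup.coe_pow]
    show Matrix.diagonal d ^ r = 1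
    rw [Matrix.diagonal_pow, ← Matrix.diagonal_one]
    congr 1
    funext i
    simp only [Pi.pow_apply, d]
    split_ifs
    · exact hζr
    · rw [hγ, inv_pow, ← pow_mul, mul_comm, pow_mul, hζr, one_pow, inv_one]
    · rw [one_pow]
  · have h0 := congrFun (congrFun hz ⟨0, by omega⟩) ⟨0, by omega⟩
    have h3 := congrFun (congrFun hz ⟨3, by omega⟩) ⟨3, by omega⟩
    simp [x, d] at h0 h3
    exact hζ1 (h0.trans h3.symm)
  have hd0 : ∀ i, d i ≠ 0 := fun i => by
    simp only [d]
    split_ifs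
    · exact hζ0
    · exact inv_ne_zero (pow_ne_zero _ hζ0)
    · exact one_ne_zero
  let S : F → Finset (Fin n) := fun α => Finset.univ.filter fun i => d i = α
  -- the form pairs `α` with `c / α`
  have hcard : ∀ α : F, α ≠ 0 → (S α).card ≤ (S (c / α)).card := by
    intro α hα
    let v : S α → (S (c / α) → F) := fun s t => B (Pi.single s.1 1) (Pi.single t.1 1)
    have hli : LinearIndependent F v := by
      rw [Fintype.linearIndependent_iff]
      intro a ha s
      set w : Fin n → F := ∑ t : S α, a t • Pi.single t.1 1 with hw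
      have hz : w = 0 := hB w fun y => by
        have : B w = 0 := LinearMap.pi_ext' fun j => LinearMap.ext_ring (by
          show B w (Pi.single j 1) = 0
          rw [hw, map_sum, LinearMap.sum_apply]
          simp only [map_smul, LinearMap.smul_apply, smul_eq_mul]
          by_cases hj : d j = c / α
          · have := congrFun ha ⟨j, Finset.mem_filter.2 ⟨Finset.mem_univ _, hj⟩⟩
            simpa [v] using this
          · refine Finset.sum_eq_zero fun t _ => mul_eq_zero_of_right _ ?_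
            have h := hx (Pi.single t.1 1) (Pi.single j 1)
            simp only [x, Matrix.diagonal_mulVec_single, mul_one] at h
            rw [show (Pi.single (t : Fin n) (d t) : Fin n → F) = d t • Pi.single (t : Fin n) 1 by
                ext i; simp [Pi.single_apply],
              show (Pi.single j (d j) : Fin n → F) = d j • Pi.single j 1 by ext i; simp [Pi.single_apply],
              (Finset.mem_filter.1 t.2).2] at h
            simp only [map_smul, LinearMap.smul_apply, smul_eq_mul] at h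
            by_contra hne
            refine hj ((eq_div_iff hα).2 (mul_right_cancel₀ hne ?_))
            linear_combination h)
        rw [this]; rfl
      have := congrFun hz s.1
      rw [hw, Finset.sum_apply, Finset.sum_eq_single s] at this
      · simpa using this
      · intro t _ hts
        simp [Pi.single_apply, Subtype.coe_injective.ne hts.symm]
      · simp
    simpa using hli.fintype_card_le_finrank
  have hmem : ∀ α i, i ∈ S α ↔ d i = α := fun α i => by simp [S]
  have h2 : ({⟨0, by omega⟩, ⟨1, by omega⟩} : Finset (Fin n)) ⊆ S ζ := fun i hi => by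
    simp only [Finset.mem_insert, Finset.mem_singleton] at hi
    rcases hi with rfl | rfl <;> simp [hmem, d]
  have hS1 : (S 1).card = n - 3 := by
    have : S 1 = ({⟨0, by omega⟩, ⟨1, by omega⟩, ⟨2, by omega⟩} : Finset (Fin n))ᶜ := by
      ext i
      simp only [hmem, d, Finset.mem_compl, Finset.mem_insert, Finset.mem_singleton, Fin.ext_iff]
      split_ifs with h h' <;> simp [hζ1, hγ1] <;> omega
    rw [this, Finset.card_compl, Fintype.card_fin]
    congr 1
  have hne : (S (c / 1)).Nonempty := Finset.card_pos.1 (by have := hcard 1 one_ne_zero; omega)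
  obtain ⟨i, hi⟩ := hne
  rw [hmem, div_one] at hi
  have hSle : ∀ α, α ≠ ζ → α ≠ γ → α ≠ 1 → (S α).card = 0 := fun α h₁ h₂ h₃ => by
    rw [Finset.card_eq_zero, Finset.eq_empty_iff_forall_notMem]
    intro i
    simp only [hmem, d]
    split_ifs <;> exact Ne.symm ‹_›
  have hSζ : 2 ≤ (S ζ).card := by
    have := Finset.card_le_card h2
    rwa [Finset.card_pair (by simp)] at this
  simp only [d] at hi
  split_ifs at hi with h h'
  · -- `c = ζ`
    subst hi
    have e1 := hcard 1 one_ne_zero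
    have e2 := hcard ζ hζ0
    rw [div_one] at e1
    rw [div_self hζ0] at e2
    by_cases hγζ : γ = ζ
    · have hr3 : r = 3 := by
        have h3 : ζ ^ 3 = 1 := by
          calc ζ ^ 3 = ζ ^ 2 * ζ := pow_succ ζ 2
            _ = 1 := by nth_rw 2 [← hγζ]; rw [hγ, mul_inv_cancel₀ (pow_ne_zero _ hζ0)]
        exact (Nat.prime_dvd_prime_iff_eq hr.out Nat.prime_three).1 ((hζe 3).1 h3)
      have : S ζ = ({⟨0, by omega⟩, ⟨1, by omega⟩, ⟨2, by omega⟩} : Finset (Fin n)) := by
        ext i
        simp only [hmem, d, Finset.mem_insert, Finset.mem_singleton, Fin.ext_iff]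
        split_ifs <;> simp [hζ1.symm, hγζ] <;> omega
      rw [this, Finset.card_insert_of_notMem (by simp), Finset.card_pair (by simp)] at e1 e2
      exact hgap ⟨by omega, hr3⟩
    · have : S ζ = ({⟨0, by omega⟩, ⟨1, by omega⟩} : Finset (Fin n)) := by
        ext i
        simp only [hmem, d, Finset.mem_insert, Finset.mem_singleton, Fin.ext_iff]
        split_ifs <;> simp [hζ1.symm, hγζ] <;> omega
      rw [this, Finset.card_pair (by simp)] at e1 e2
      obtain ⟨k, hk⟩ := he
      omega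
  · -- `c = γ`
    subst hi
    have e1 := hcard 1 one_ne_zero
    have e2 := hcard ζ hζ0
    rw [div_one] at e1
    by_cases hγζ : γ = ζ
    · have h1 : γ / ζ = 1 := by rw [hγζ, div_self hζ0]
      rw [h1] at e2
      have hr3 : r = 3 := by
        have h3 : ζ ^ 3 = 1 := by
          calc ζ ^ 3 = ζ ^ 2 * ζ := pow_succ ζ 2
            _ = 1 := by nth_rw 2 [← hγζ]; rw [hγ, mul_inv_cancel₀ (pow_ne_zero _ hζ0)]
        exact (Nat.prime_dvd_prime_iff_eq hr.out Nat.prime_three).1 ((hζe 3).1 h3)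
      have : S ζ = ({⟨0, by omega⟩, ⟨1, by omega⟩, ⟨2, by omega⟩} : Finset (Fin n)) := by
        ext i
        simp only [hmem, d, Finset.mem_insert, Finset.mem_singleton, Fin.ext_iff]
        split_ifs <;> simp [hζ1.symm, hγζ] <;> omega
      rw [hγζ, this, Finset.card_insert_of_notMem (by simp), Finset.card_pair (by simp)] at e1
      rw [this, Finset.card_insert_of_notMem (by simp), Finset.card_pair (by simp)] at e2
      exact hgap ⟨by omega, hr3⟩
    · have hSγ : S γ = ({⟨2, by omega⟩} : Finset (Fin n)) := by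
        ext i
        simp only [hmem, d, Finset.mem_singleton, Fin.ext_iff]
        split_ifs <;> simp [hγ1.symm, Ne.symm hγζ] <;> omega
      rw [hSγ, Finset.card_singleton] at e1
      have hne' : γ / ζ ≠ ζ := fun h => by
        rw [div_eq_iff hζ0, hγ, inv_eq_iff_eq_inv] at h
        have h4 : ζ ^ 4 = 1 := by
          calc ζ ^ 4 = ζ ^ 2 * (ζ * ζ) := by ring
            _ = 1 := by rw [h, inv_mul_cancel₀ (mul_ne_zero hζ0 hζ0)]
        exact hr2' (hr.out.dvd_of_dvd_pow (show r ∣ 2 ^ 2 from (hζe 4).1 h4))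
      have hne'' : γ / ζ ≠ γ := fun h => hζ1 (by
        rw [div_eq_iff hζ0] at h
        exact mul_left_cancel₀ (inv_ne_zero (pow_ne_zero 2 hζ0)) (h.symm.trans (mul_one γ).symm))
      by_cases h1 : γ / ζ = 1
      · rw [h1] at e2; omega
      · rw [hSle _ hne' hne'' h1] at e2; omega
  · -- `c = 1`
    subst hi
    have e := hcard ζ hζ0
    rw [hSle (1 / ζ) (fun h => hζsq (by rw [pow_two]; nth_rw 1 [← h]; rw [one_div_mul_cancel hζ0]))
      (fun h => hζ1 (by
        rw [one_div, hγ, _root_.inv_inj] at h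
        exact (mul_eq_left₀ hζ0).1 (by rw [← pow_two, ← h])))
      (fun h => hζ1 (by rwa [one_div, inv_eq_one] at h))] at e
    omega

/-- An element with an irreducible summand of odd dimension `i`. -/
theorem exists_block [Fintype F] {p : ℕ} [Fact p.Prime] [CharP F p] {n i : ℕ} (hi1 : 1 < i) (hio : Odd i)
    (hin : i < n) {r : ℕ} [hr : Fact r.Prime] (hdvd : r ∣ Fintype.card F ^ i - 1)
    (hq : ¬ r ∣ Fintype.card F - 1) :
    ∃ x : Matrix.SpecialLinearGroup (Fin n) F, x ^ r = 1 ∧
      (∀ z : F, (x : Matrix (Fin n) (Fin n) F) ≠ z • 1) ∧ NoSimilitude (x : Matrix (Fin n) (Fin n) F) := by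
  classical
  haveI : NeZero i := ⟨by omega⟩
  obtain ⟨k, rfl, hk⟩ : ∃ k, n = i + k ∧ 0 < k := ⟨n - i, by omega, by omega⟩
  let K := FiniteField.Extension F p i
  let bK := (Module.finBasis F K).reindex (finCongr (FiniteField.finrank_extension F p i))
  obtain ⟨u, hu⟩ := exists_prime_orderOf_dvd_card' (G := Kˣ) r (by
    rw [Nat.card_units, FiniteField.natCard_extension, Nat.card_eq_fintype_card]
    exact hdvd)
  set ζ := (u : K) with hζ
  have hζr : ζ ^ r = 1 := by
    rw [hζ, ← Units.val_pow_eq_pow_val, ← hu, pow_orderOf_eq_one, Units.val_one]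
  let φ : K →ₐ[F] Matrix (Fin i) (Fin i) F := Algebra.leftMulMatrix bK
  let A := φ ζ
  have hroot : ∀ a : F, a ^ r = 1 → a = 1 := fun a ha => by
    have ha0 : a ≠ 0 := fun h => by simp [h, hr.out.ne_zero] at ha
    rcases (Nat.dvd_prime hr.out).1 (orderOf_dvd_of_pow_eq_one ha) with h | h
    · exact orderOf_eq_one_iff.1 h
    · exact absurd (h ▸ orderOf_dvd_of_pow_eq_one (FiniteField.pow_card_sub_one_eq_one a ha0)) hq
  have hζF : ∀ a : F, ζ ≠ algebraMap F K a := fun a h => by
    have ha : a = 1 := hroot a ((algebraMap F K).injective (by rw [map_pow, ← h, hζr, map_one]))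
    rw [ha, map_one] at h
    rw [show u = 1 from Units.ext h, orderOf_one] at hu
    exact hr.out.ne_one hu.symm
  have hunit : ∀ a : F, IsUnit (A - a • (1 : Matrix (Fin i) (Fin i) F)) := fun a => by
    have : A - a • (1 : Matrix (Fin i) (Fin i) F) = φ (ζ - algebraMap F K a) := by
      rw [map_sub, AlgHom.commutes, Algebra.algebraMap_eq_smul_one]
    rw [this]
    exact (isUnit_iff_ne_zero.2 (sub_ne_zero.2 (hζF a))).map φ
  have hAdet : A.det = 1 := hroot _ (by rw [← Matrix.det_pow, ← map_pow, hζr, map_one, Matrix.det_one])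
  let e := (finSumFinEquiv : Fin i ⊕ Fin k ≃ Fin (i + k))
  let R := Matrix.reindexAlgEquiv F F e
  let x : Matrix.SpecialLinearGroup (Fin (i + k)) F := ⟨R (Matrix.fromBlocks A 0 0 1), by
    simp [R, Matrix.det_fromBlocks_zero₂₁, hAdet]⟩
  have hxv : ∀ (a : Fin i → F) (b : Fin k → F), (x : Matrix (Fin (i + k)) (Fin (i + k)) F) *ᵥ (Sum.elim a b ∘ e.symm) =
      Sum.elim (A *ᵥ a) b ∘ e.symm := fun a b => by
    simp [x, R, Matrix.submatrix_mulVec_equiv, Matrix.fromBlocks_mulVec, Function.comp_assoc]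
  refine ⟨x, Subtype.ext ?_, fun z hz => ?_, fun B c hA hB hc hx => ?_⟩
  · rw [Matrix.SpecialLinearGroup.coe_pow]
    show R (Matrix.fromBlocks A 0 0 1) ^ r = 1
    have hp : ∀ e : ℕ, Matrix.fromBlocks A 0 0 (1 : Matrix (Fin k) (Fin k) F) ^ e = Matrix.fromBlocks (A ^ e) 0 0 1 := by
      intro e
      induction e with
      | zero => simp
      | succ e ih => rw [pow_succ, ih, Matrix.fromBlocks_multiply]; simp [pow_succ]
    rw [← map_pow, hp, ← map_pow φ, hζr, map_one, Matrix.fromBlocks_one, map_one]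
  · have h1 : Matrix.fromBlocks A 0 0 (1 : Matrix (Fin k) (Fin k) F) = z • 1 := by
      apply R.injective
      rw [map_smul, map_one]
      exact hz
    rw [← Matrix.fromBlocks_one, Matrix.fromBlocks_smul, Matrix.fromBlocks_inj] at h1
    haveI : Nonempty (Fin i) := ⟨⟨0, by omega⟩⟩
    have hu0 := hunit z
    rw [h1.1, sub_self] at hu0
    exact not_isUnit_zero hu0
  let j : (Fin i → F) × (Fin k → F) →ₗ[F] (Fin (i + k) → F) :=
    { toFun := fun w => Sum.elim w.1 w.2 ∘ e.symm
      map_add' := fun v w => by funext t; rcases h : e.symm t <;> simp [h]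
      map_smul' := fun a w => by funext t; rcases h : e.symm t <;> simp [h] }
  have hj : Function.Surjective j := fun v => ⟨((v ∘ e) ∘ Sum.inl, (v ∘ e) ∘ Sum.inr), by
    show Sum.elim ((v ∘ e) ∘ Sum.inl) ((v ∘ e) ∘ Sum.inr) ∘ e.symm = v
    rw [Sum.elim_comp_inl_inr]; funext t; simp⟩
  have hx' : ∀ a b a' b', B (j (A *ᵥ a, b)) (j (A *ᵥ a', b')) = c * B (j (a, b)) (j (a', b')) := fun a b a' b' => by
    show B (Sum.elim _ _ ∘ e.symm) (Sum.elim _ _ ∘ e.symm) = _
    rw [← hxv, ← hxv, hx]
    rfl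
  have hsolve : ∀ (a : F) (w : Fin i → F), ∃ v, A *ᵥ v - a • v = w := fun a w => by
    obtain ⟨v, hv⟩ := (Matrix.mulVec_surjective_iff_isUnit.2 (hunit a)) w
    exact ⟨v, by rw [← hv, Matrix.sub_mulVec, Matrix.smul_mulVec, Matrix.one_mulVec]⟩
  have hfix : ∀ b a' b', B (j (0, b)) (j (A *ᵥ a' - c • a', (1 - c) • b')) = 0 := fun b a' b' => by
    have h := hx' 0 b a' b'
    rw [Matrix.mulVec_zero] at h
    have e' : (A *ᵥ a' - c • a', (1 - c) • b') = ((A *ᵥ a', b') : (Fin i → F) × (Fin k → F)) - c • (a', b') := by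
      ext t <;> simp; ring
    rw [e', map_sub, map_smul, map_sub, map_smul, h, smul_eq_mul, sub_self]
  have hc1 : c = 1 := by
    by_contra hc1
    have h0 : j ((0 : Fin i → F), Pi.single ⟨0, hk⟩ (1 : F)) = 0 := hB _ fun w => by
      obtain ⟨⟨a, b⟩, rfl⟩ := hj w
      obtain ⟨a', rfl⟩ := hsolve c a
      have h := hfix (Pi.single ⟨0, hk⟩ 1) a' ((1 - c)⁻¹ • b)
      rwa [smul_smul, mul_inv_cancel₀ (sub_ne_zero.2 (Ne.symm hc1)), one_smul] at h
    simpa [j] using congrFun h0 (e (Sum.inr ⟨0, hk⟩))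
  subst hc1
  have hperp : ∀ b a, B (j (0, b)) (j (a, 0)) = 0 := fun b a => by
    obtain ⟨a', rfl⟩ := hsolve 1 a
    simpa using hfix b a' 0
  let jW : (Fin i → F) →ₗ[F] (Fin (i + k) → F) := j ∘ₗ LinearMap.inl F _ _
  have hev := even_finrank ((B.compl₂ jW) ∘ₗ jW) (fun v => hA _) fun a ha => by
    have h0 : jW a = 0 := hB _ fun w => by
      obtain ⟨⟨a', b'⟩, rfl⟩ := hj w
      have hsum : j (a', b') = jW a' + j (0, b') := by
        show _ = j (a', 0) + j (0, b')
        rw [← map_add, Prod.mk_add_mk, add_zero, zero_add]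
      rw [hsum, map_add, show B (jW a) (j (0, b')) = 0 by
        rw [← LinearMap.IsAlt.neg hA, show jW a = j (a, 0) from rfl, hperp b' a, neg_zero]]
      rw [add_zero]
      exact ha a'
    funext t
    simpa [jW, j] using congrFun h0 (e (Sum.inl t))
  rw [Module.finrank_fintype_fun_eq_card, Fintype.card_fin] at hev
  exact Nat.not_even_iff_odd.2 hio hev

end CfsgLib.SympType
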